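import Cfsg.Agent.H926.HP.Disj
import Cfsg.Agent.H926.HP.Num
import Cfsg.Agent.H926.HT.AltBig
import Cfsg.Agent.H192.Ht.QLN
import Cfsg.Agent.H19.HT.Asm

/-!
# S3512, quasisimple rows: alternating groups of degree at least 32 (all characteristics)
-/

set_option autoImplicit false
set_option linter.unusedSectionVars false

namespace Cfsg.Agent.H926.HP

open Equiv Equiv.Perm Cfsg.Agent.H614.AMod Cfsg.Agent.H828.HT
open Cfsg.Agent.H742.HT (QL)
open Cfsg.Agent.H825.Spin (Dc)
open Cfsg.Agent.H926.HT (exists_even stv y3 y3_map y3_cube y3_pow y3_conj T3 T3_cube T3_sign rep exists_dc)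

universe u w

theorem card_mulAut_dvd {m : ℕ} (hm : 7 ≤ m) {S : Type*} [Group S] (e : S ≃* alternatingGroup (Fin m)) :
    Nat.card (MulAut S) ∣ m.factorial := by
  classical
  obtain ⟨ψ, hψ⟩ := StandardComponent.AltAut.exists_autHom m hm
  have hinj : Function.Injective ψ := by
    intro a b hab
    ext x : 1
    apply Subtype.ext
    rw [hψ, hψ, hab]
  have h1 : Nat.card (MulAut (alternatingGroup (Fin m))) ∣ Nat.card (Equiv.Perm (Fin m)) :=
    Subgroup.card_dvd_of_injective ψ hinj
  rw [Nat.card_congr (MulAut.congr e).toEquiv]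
  refine h1.trans (dvd_of_eq ?_)
  rw [Nat.card_eq_fintype_card, Fintype.card_perm, Fintype.card_fin]

variable {p : ℕ} [hp : Fact p.Prime] {K : Type w} [Field K] {V : Type u} [AddCommGroup V] [Module (ZMod p) V] [Finite V]
    [Module K V] {G L : Subgroup (V ≃ₗ[ZMod p] V)} {h : ℕ}

theorem charP (H : QL p K V G L h) : CharP K p := by
  obtain ⟨v, hv⟩ := Cfsg.Agent.H192.Ht.QN.exists_ne H
  have h1 : (p : K) = 0 := by
    have h2 : (p : ℕ) • v = 0 := by
      rw [← Nat.cast_smul_eq_nsmul (ZMod p), ZMod.natCast_self, zero_smul]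
    rw [← Nat.cast_smul_eq_nsmul K] at h2
    exact (smul_eq_zero.1 h2).resolve_right hv
  obtain ⟨r, hr⟩ := CharP.exists K
  have h3 : r ∣ p := (CharP.cast_eq_zero_iff K r p).1 h1
  rcases (Nat.dvd_prime hp.out).1 h3 with rfl | rfl
  · exact absurd rfl (CharP.char_ne_one K 1)
  · exact hr

theorem ne_zero_of_ne (H : QL p K V G L h) {l : ℕ} (hl : l.Prime) (hlp : p ≠ l) : (l : K) ≠ 0 := by
  have := charP H
  intro h0
  exact hlp ((Nat.prime_dvd_prime_iff_eq hp.out hl).1 ((CharP.cast_eq_zero_iff K p l).1 h0))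

theorem card_stv_dvd (H : QL p K V G L h) {v : V} (hv : v ≠ 0) : Nat.card (stv (rep (K := K) L H.lin) v) ∣ h := by
  let φ : stv (rep (K := K) L H.lin) v →* MulAction.stabilizer G v :=
    { toFun := fun g => ⟨⟨(g : L), H.le (g : L).2⟩, g.2⟩
      map_one' := rfl
      map_mul' := fun a b => rfl }
  refine (Subgroup.card_dvd_of_injective φ ?_).trans (dvd_of_eq (H.half v hv))
  intro a b hab
  apply Subtype.ext
  apply Subtype.ext
  exact congrArg (fun x : MulAction.stabilizer G v => ((x : G) : V ≃ₗ[ZMod p] V)) hab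

theorem faithful (H : QL p K V G L h) {x : L} (hx : rep (K := K) L H.lin x = 1) : x = 1 := by
  apply Subtype.ext
  apply LinearEquiv.ext
  intro v
  exact LinearMap.congr_fun hx v

theorem yy_ne (H : QL p K V G L h) {l : ℕ} [hl : Fact l.Prime] (hl2 : l ≠ 2) {α : Type*} [Fintype α] [DecidableEq α]
    {π : L →* Perm α} {z : L} (D : Dc π z) (e : ZMod l ↪ α) : rep (K := K) L H.lin (yy D hl2 e) ≠ 1 := by
  intro hx
  have h1 := faithful H hx
  have h2 := yy_map D hl2 e
  rw [h1, map_one] at h2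
  have h3 := TT_apply e 0
  rw [← h2, Perm.one_apply, zero_add] at h3
  have : Fact (1 < l) := ⟨hl.out.one_lt⟩
  exact zero_ne_one (e.injective h3)

theorem y3_ne (H : QL p K V G L h) {α : Type*} [Fintype α] [DecidableEq α]
    {π : L →* Perm α} {z : L} (D : Dc π z) (e : Fin 3 ↪ α) : rep (K := K) L H.lin (y3 D e) ≠ 1 := by
  intro he
  have h2 := y3_map D e
  rw [faithful H he, map_one] at h2
  have h4 : T3 e (e 0) = e 1 := by
    rw [T3, Perm.mul_apply, swap_apply_of_ne_of_ne (e.injective.ne (by decide)) (e.injective.ne (by decide)),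
      swap_apply_left]
  rw [← h2, Perm.one_apply] at h4
  exact absurd (e.injective h4) (by decide)

theorem choose_two (k : ℕ) : 2 * Nat.choose k 2 = k * (k - 1) := by
  rw [Nat.choose_two_right, Nat.mul_div_cancel' (Nat.even_mul_pred_self k).two_dvd]

theorem le_of_ge_four {k d : ℕ} (hk : 6 ≤ k) (h : ∃ j, 1 ≤ j ∧ j ≤ k ∧ Nat.choose k j * (5 - 1) ^ j ≤ d) : 4 * k ≤ d := by
  obtain ⟨j, h1, h2, h3⟩ := h
  rcases Nat.lt_or_ge 1 j with h4 | h4
  · have h5 := num_four (by omega) h4 h2
    have h6 := le_choose_two (k := k) (by omega)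
    norm_num at h3
    omega
  · have : j = 1 := by omega
    subst this
    simp at h3
    omega

theorem le_of_ge_two {k d : ℕ} (hk : 6 ≤ k) (h : ∃ j, 1 ≤ j ∧ j ≤ k ∧ Nat.choose k j * (3 - 1) ^ j ≤ d) : 2 * k ≤ d := by
  obtain ⟨j, h1, h2, h3⟩ := h
  rcases Nat.lt_or_ge 1 j with h4 | h4
  · have h5 := num_bin (by omega) h4 h2
    have h6 := le_choose_two (k := k) (by omega)
    norm_num at h3
    omega
  · have : j = 1 := by omega
    subst this
    simp at h3
    omega

theorem two_pow_dvd {n : ℕ} (hn : 32 ≤ n) : 2 ^ 31 ∣ n.factorial := by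
  have h : 2 ^ 31 ∣ (32).factorial := by decide +kernel
  exact h.trans (Nat.factorial_dvd_factorial hn)

/-- **Alternating groups of degree at least 32 do not occur.** -/
theorem alt_large_QL (H : QL p K V G L h) (hpG : p ∣ Nat.card G) {n : ℕ} (hn : 32 ≤ n)
    (e : (L ⧸ Subgroup.center L) ≃* alternatingGroup (Fin n)) : False := by
  have hK := Cfsg.Agent.H192.Ht.QN.finiteK H
  have hfd := Cfsg.Agent.H192.Ht.QN.finiteDim H
  obtain ⟨v0, hv0⟩ := Cfsg.Agent.H192.Ht.QN.exists_ne H
  have : Nontrivial V := ⟨v0, 0, hv0⟩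
  obtain ⟨π, z, D⟩ := exists_dc H.perf (by omega) e
  obtain ⟨m, hm, hm0⟩ := exists_m H.half ⟨v0, hv0⟩
  have h0 : 0 < h := Cfsg.Agent.H19.HT.h_pos H.half hv0
  have hph := Cfsg.Agent.H19.HT.p_dvd_h H.half hpG
  have hpm := Cfsg.Agent.H19.HT.p_not_dvd_m H.half hm
  have h2h : 2 ≤ h := hp.out.two_le.trans (Nat.le_of_dvd h0 hph)
  have hV := Cfsg.Agent.H19.HT.card_le H.half h2h hm
  have hI := Cfsg.Agent.H192.Ht.ineq H.half h0 hm
  have hmh : m * h ∣ (Nat.card K - 1) * n.factorial := by
    rw [hm]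
    exact (Cfsg.Agent.H192.Ht.QN.card_G_dvd H).trans (Nat.mul_dvd_mul_left _ (card_mulAut_dvd (by omega) e))
  have hq := Cfsg.Agent.H192.Ht.QN.two_le_card H
  have hd2 := Cfsg.Agent.H192.Ht.QN.two_le_finrank H
  obtain ⟨f, hf, hf0⟩ := Cfsg.Agent.H192.Ht.QN.exists_card H
  rw [Cfsg.Agent.H192.Ht.QN.card_V H] at hV hI
  set q := Nat.card K with hqdef
  set d := Module.finrank K V with hddef
  have hpq : p ≤ q := by rw [hf]; exact Nat.le_self_pow hf0.ne' p
  set ρ := rep (K := K) L H.lin with hρ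
  have hcard : Fintype.card (Fin n) = n := Fintype.card_fin n
  -- the number of blocks
  obtain ⟨k, hk⟩ : ∃ k, k = (n - 2) / 5 := ⟨_, rfl⟩
  have hk6 : 6 ≤ k := by omega
  have hk5 : 5 * k + 2 ≤ n := by omega
  have hkn : n ≤ 5 * k + 6 := by omega
  have hfac : 0 < n.factorial := Nat.factorial_pos n
  have h2m : 2 * m ≤ (q - 1) * n.factorial := by
    have h1 : m * h ≤ (q - 1) * n.factorial := Nat.le_of_dvd (Nat.mul_pos (by omega) hfac) hmh
    have h2 : m * 2 ≤ m * h := Nat.mul_le_mul_left _ h2h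
    omega
  have hpow := Num.pow_lt hq hd2 hfac h2m hV
  -- the key: a vector with a large stabiliser
  have key : (∃ e0 : Fin 3 ↪ Fin n, ∀ e' : Fin 3 ↪ Fin n, (∀ i j, e0 i ≠ e' j) → y3 D e' ∈ pst ρ (U ρ (y3 D e0))) ∧
      3 * k ≤ d ∧ (p ≠ 5 → 4 * k ≤ d) := by
    by_cases hp5 : p = 5
    · -- characteristic 5
      have : Fact (Nat.Prime 3) := ⟨Nat.prime_three⟩
      obtain ⟨k', hk'⟩ : ∃ k', k' = (n - 2) / 3 := ⟨_, rfl⟩
      have hK3 : ((3 : ℕ) : K) ≠ 0 := ne_zero_of_ne H Nat.prime_three (by omega)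
      have hdd : d < 2 * (k' * (k' - 1)) := Num.dim_five hk6 hkn (by omega) (by omega) hd2 hpow
      have hlow : 2 * k' ≤ d := le_of_ge_two (by omega) (finrank_ge (l := 3) ρ D (by norm_num) hK3 (by omega)
        (by rw [hcard]; omega) (fun e => yy_ne H (by norm_num) D e))
      refine ⟨?_, by omega, fun h => absurd hp5 h⟩
      obtain ⟨e0⟩ : Nonempty (Fin 3 ↪ Fin n) := Function.Embedding.nonempty_of_card_le (by simp; omega)
      refine ⟨e0, fun e' he' => ?_⟩
      have h1 := pair_of_small (l := 3) ρ D (by norm_num) hK3 (k := k') (by omega) (by rw [hcard]; omega)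
        (fun j h1 h2 => by
          have h3 := num_bin (k := k') (by omega) h1 h2
          have h4 := choose_two k'
          rw [show 3 - 1 = 2 from rfl]
          omega) (em3 e0) (em3 e') (fun i j => by rw [em3_apply, em3_apply]; exact he' _ _)
      rwa [yy_three, yy_three] at h1
    · have : Fact (Nat.Prime 5) := ⟨by norm_num⟩
      have hK5 : ((5 : ℕ) : K) ≠ 0 := ne_zero_of_ne H (by norm_num) hp5
      have hlow : 4 * k ≤ d := le_of_ge_four hk6 (finrank_ge (l := 5) ρ D (by norm_num) hK5 (by omega)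
        (by rw [hcard]; omega) (fun e => yy_ne H (by norm_num) D e))
      have hdd : d < 8 * (k * (k - 1)) := by
        rcases Nat.lt_or_ge 2 q with h3 | h3
        · exact Num.dim_three hk6 hkn h3 hpow
        · have hq2 : q = 2 := by omega
          have hp2 : p = 2 := by have := hp.out.two_le; omega
          rw [hq2] at hV hmh
          refine Num.dim_two hk6 hkn ?_ hV
          refine Nat.le_of_dvd hfac ?_
          refine Nat.Coprime.mul_dvd_of_dvd_of_dvd ?_ ?_ (two_pow_dvd hn)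
          · apply Nat.Coprime.pow_right
            rw [Nat.coprime_comm]
            rw [hp2] at hpm
            exact (Nat.Prime.coprime_iff_not_dvd Nat.prime_two).2 hpm
          · rw [show 2 - 1 = 1 from rfl, one_mul] at hmh
            exact (dvd_mul_right _ _).trans hmh
      refine ⟨three_of_five ρ D (by rw [hcard]; omega) fun e e' he => ?_, by omega, fun _ => hlow⟩
      exact pair_of_small (l := 5) ρ D (by norm_num) hK5 (k := k) (by omega) (by rw [hcard]; omega)
        (fun j h1 h2 => by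
          have h3 := num_four (k := k) (by omega) h1 h2
          have h4 := choose_two k
          rw [show 5 - 1 = 4 from rfl]
          omega) e e' he
  obtain ⟨hkey, h3k, h4k⟩ := key
  obtain ⟨v, hv, hst⟩ := exists_stv ρ D (by rw [hcard]; omega) hkey (fun e => y3_ne H D e)
  rw [hcard] at hst
  have hdvd : (n - 3).factorial ∣ 2 * h := hst.trans (Nat.mul_dvd_mul_left 2 (card_stv_dvd H hv))
  have hmd := Num.m_dvd (by omega) hmh hdvd
  have hB : 8 * n ^ 6 ≤ 8 * (5 * k + 6) ^ 6 := Nat.mul_le_mul_left _ (Nat.pow_le_pow_left hkn 6)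
  by_cases hp5 : p = 5
  · refine Num.end_three hq hd2 (by omega) hmd (by omega) hV hB ((Num.five_pow hk6).le.trans ?_)
    exact (Nat.pow_le_pow_left (by omega) _).trans (Nat.pow_le_pow_right (by omega) (by omega))
  · have h4 := h4k hp5
    rcases Nat.lt_or_ge 2 q with h3 | h3
    · refine Num.end_three hq hd2 (by omega) hmd (by omega) hV hB ((Num.three_pow hk6).le.trans ?_)
      exact (Nat.pow_le_pow_left h3 _).trans (Nat.pow_le_pow_right (by omega) (by omega))
    · have hq2 : q = 2 := by omega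
      have hp2 : p = 2 := by have := hp.out.two_le; omega
      rw [hq2] at hV hI hmd
      rw [hp2] at hpm
      exact Num.end_two hk6 hkn hn h4 hmd hpm hdvd h0 hV hI

/-- the same in the setting `QSP` -/
theorem alt_large (H : Cfsg.Agent.H19.HT.QSP p K V G L h) {n : ℕ} (hn : 32 ≤ n)
    (e : (L ⧸ Subgroup.center L) ≃* alternatingGroup (Fin n)) : False :=
  alt_large_QL (K := K) (G := G) (L := L) (h := h)
    ⟨H.half, H.le, H.nrm, H.perf, H.simple, H.nonab, H.lin, H.endo, H.irr⟩ H.dvd hn e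

end Cfsg.Agent.H926.HP
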